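import Mathlib

/-!
# Codes for the field with eight elements

`n : Fin 8` stands for the polynomial in a root `α` of `X³ + X + 1` with the binary digits of `n`
as coefficients.
-/

set_option autoImplicit false

namespace Cfsg.Agent.H14.Sz8

/-- Binary digit. -/
def bit8 (n : Fin 8) (i : ℕ) : Bool := n.val.testBit i

/-- Addition of codes. -/
def xadd (a b : Fin 8) : Fin 8 := ⟨(a.val ^^^ b.val) % 8, Nat.mod_lt _ (by norm_num)⟩

/-- Multiplication by the root. -/
def dbl (a : Fin 8) : Fin 8 :=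
  xadd ⟨(2 * a.val) % 8, Nat.mod_lt _ (by norm_num)⟩ (if bit8 a 2 then 3 else 0)

/-- Scaling by a digit. -/
def sel (c : Bool) (a : Fin 8) : Fin 8 := if c then a else 0

/-- Multiplication of codes. -/
def fmul (a b : Fin 8) : Fin 8 :=
  xadd (sel (bit8 a 0) b) (xadd (sel (bit8 a 1) (dbl b)) (sel (bit8 a 2) (dbl (dbl b))))

variable {F : Type*} [Field F]

/-- A digit in the field. -/
def dig (c : Bool) : F := if c then 1 else 0

/-- The field element of a code. -/
def ev8 (α : F) (n : Fin 8) : F := dig (bit8 n 0) + dig (bit8 n 1) * α + dig (bit8 n 2) * α ^ 2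

theorem dig_xor [CharP F 2] (a b : Bool) : (dig (a ^^ b) : F) = dig a + dig b := by
  cases a <;> cases b <;> simp [dig, CharTwo.add_self_eq_zero]

theorem bit8_xadd : ∀ a b : Fin 8, ∀ i : Fin 3, bit8 (xadd a b) i = (bit8 a i ^^ bit8 b i) := by
  decide

theorem ev8_xadd [CharP F 2] (α : F) (a b : Fin 8) : ev8 α (xadd a b) = ev8 α a + ev8 α b := by
  have h0 := bit8_xadd a b 0
  have h1 := bit8_xadd a b 1
  have h2 := bit8_xadd a b 2
  simp only [Fin.val_zero, Fin.val_one, Fin.val_two] at h0 h1 h2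
  simp only [ev8, h0, h1, h2, dig_xor]
  ring

theorem ev8_zero (α : F) : ev8 α 0 = 0 := by
  simp [ev8, bit8, dig]

theorem ev8_one (α : F) : ev8 α 1 = 1 := by
  simp [ev8, bit8, dig, Nat.testBit, Nat.shiftRight_eq_div_pow]

theorem ev8_two (α : F) : ev8 α 2 = α := by
  simp [ev8, bit8, dig, Nat.testBit, Nat.shiftRight_eq_div_pow]

theorem ev8_sel (α : F) (c : Bool) (a : Fin 8) : ev8 α (sel c a) = dig c * ev8 α a := by
  cases c <;> simp [sel, dig, ev8_zero]

theorem ev8_dbl [CharP F 2] {α : F} (hα : α ^ 3 = α + 1) (a : Fin 8) : ev8 α (dbl a) = α * ev8 α a := by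
  have e : ∀ a : Fin 8, bit8 (dbl a) 0 = bit8 a 2 ∧ bit8 (dbl a) 1 = (bit8 a 0 ^^ bit8 a 2) ∧
      bit8 (dbl a) 2 = bit8 a 1 := by decide
  obtain ⟨h0, h1, h2⟩ := e a
  simp only [ev8, h0, h1, h2, dig_xor]
  linear_combination (-dig (bit8 a 2) : F) * hα

theorem ev8_fmul [CharP F 2] {α : F} (hα : α ^ 3 = α + 1) (a b : Fin 8) :
    ev8 α (fmul a b) = ev8 α a * ev8 α b := by
  rw [fmul, ev8_xadd, ev8_xadd, ev8_sel, ev8_sel, ev8_sel]
  simp only [ev8_dbl hα]
  simp only [ev8]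
  ring

theorem ev8_injective [CharP F 2] {α : F} (hα : α ^ 3 = α + 1) : Function.Injective (ev8 α) := by
  intro a b h
  have h1 : ev8 α (xadd a b) = 0 := by rw [ev8_xadd, h]; exact CharTwo.add_self_eq_zero _
  have h2 : ∀ c : Fin 8, c ≠ 0 → ∃ d, fmul c d = 1 := by decide
  have h3 : ∀ a b : Fin 8, xadd a b = 0 → a = b := by decide
  refine h3 a b (by_contra fun hne => ?_)
  obtain ⟨d, hd⟩ := h2 _ hne
  have h4 := ev8_fmul hα (xadd a b) d
  rw [hd, ev8_one, h1, zero_mul] at h4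
  exact one_ne_zero h4

/-- A field with eight elements contains a root of `X³ + X + 1`. -/
theorem exists_root8 [Finite F] [CharP F 2] (h8 : Nat.card F = 8) : ∃ α : F, α ^ 3 = α + 1 := by
  classical
  haveI := Fintype.ofFinite F
  have hF : Fintype.card F = 8 := by rw [← Nat.card_eq_fintype_card, h8]
  obtain ⟨x, hx⟩ : ∃ x : F, x ∉ ({0, 1} : Finset F) := by
    by_contra h
    have h1 : Finset.univ ⊆ ({0, 1} : Finset F) := fun x _ => not_not.mp fun hx => h ⟨x, hx⟩
    have h2 := (Finset.card_le_card h1).trans Finset.card_le_two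
    rw [Finset.card_univ, hF] at h2
    omega
  simp only [Finset.mem_insert, Finset.mem_singleton, not_or] at hx
  have h7 : x ^ 7 = 1 := by
    have := FiniteField.pow_card_sub_one_eq_one x hx.1
    rwa [hF] at this
  have h2 : (2 : F) = 0 := CharTwo.two_eq_zero
  have hprod : (x - 1) * ((x ^ 3 - x - 1) * (x ^ 3 + x ^ 2 + 1)) = 0 := by
    linear_combination h7 + (1 - x ^ 5) * h2
  rcases mul_eq_zero.mp hprod with h | h
  · exact absurd (sub_eq_zero.mp h) hx.2
  rcases mul_eq_zero.mp h with h | h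
  · exact ⟨x, by linear_combination h⟩
  · refine ⟨x⁻¹, ?_⟩
    have e : x * x⁻¹ = 1 := mul_inv_cancel₀ hx.1
    linear_combination x⁻¹ ^ 3 * h - (x ^ 2 * x⁻¹ ^ 2 + x * x⁻¹ + 1 + x⁻¹ * (x * x⁻¹ + 1)) * e -
      (x⁻¹ + 1) * h2

end Cfsg.Agent.H14.Sz8
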