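import Cfsg.Agent.H64.SzMult.Two
import Cfsg.Agent.H7.SzGen
import Cfsg.Agent.H82.Mult
import Cfsg.Agent.H14.Sz8.Field8

/-!
# The bound four on the multiplier of `Sz(8)`
-/

set_option autoImplicit false

namespace Cfsg.Agent.H14.Sz8

open Cfsg.Agent.H7
open Cfsg.Agent.H64 (biadd_invariant_eq_one)
open Cfsg.Agent.H64.SzMult (bracket_mul_left bracket_mul_right)
open scoped commutatorElement

variable {F : Type*} [Field F] {m : ℕ} {Γ : Type*} [Group Γ]

/-- Some element is not a cube root of unity. -/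
theorem exists_witness (H : SzHyp F m) : ∃ c : F, c ≠ 0 ∧ 1 + c ≠ 0 ∧ (1 + c)⁻¹ - 1 - c⁻¹ ≠ 0 := by
  classical
  haveI := H.fin
  letI := Fintype.ofFinite F
  let P : Polynomial F := Polynomial.X * ((1 + Polynomial.X) * (Polynomial.X ^ 2 + Polynomial.X + 1))
  have hP : P ≠ 0 := by
    refine mul_ne_zero Polynomial.X_ne_zero (mul_ne_zero ?_ ?_) <;>
      intro h <;> simpa using congrArg (Polynomial.eval (0 : F)) h
  obtain ⟨c, hc⟩ : ∃ c : F, P.eval c ≠ 0 := by
    refine P.exists_eval_ne_zero_of_natDegree_lt_card hP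
      (lt_of_le_of_lt (Nat.cast_le.mpr (show P.natDegree ≤ 4 by simp only [P]; compute_degree)) ?_)
    rw [Cardinal.mk_fintype]
    refine Nat.cast_lt.mpr ?_
    rw [← Nat.card_eq_fintype_card]
    exact lt_of_lt_of_le (by norm_num) H.eight_le_card
  simp only [P, Polynomial.eval_mul, Polynomial.eval_add, Polynomial.eval_X, Polynomial.eval_one,
    Polynomial.eval_pow, mul_ne_zero_iff] at hc
  obtain ⟨hc0, hc1, hR⟩ := hc
  refine ⟨c, hc0, hc1, fun h => hR ?_⟩
  field_simp at h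
  linear_combination h + (1 + c + c ^ 2) * H.two_eq

/-- In a central extension of a Suzuki group in which preimages of `U(a,0)` commute with preimages of
`U(0,b)`, the kernel meets the commutator subgroup of the preimage of a Sylow 2-subgroup trivially. -/
theorem inf_commutator_eq_bot_of_commute (H : SzHyp F m) {σ : Γ →* Sz F m} (hσ : Function.Surjective σ)
    (hc : σ.ker ≤ Subgroup.center Γ)
    (hAZ0 : ∀ a b x y, σ x = H.us a 0 → σ y = H.us 0 b → ⁅x, y⁆ = 1) :
    σ.ker ⊓ ⁅H.Q.comap σ, H.Q.comap σ⁆ = ⊥ := by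
  classical
  haveI := H.fin
  letI := Fintype.ofFinite F
  set L := Function.surjInv hσ with hL
  have hσL : ∀ g, σ (L g) = g := Function.surjInv_eq hσ
  have hz : ∀ {z : Γ}, σ z = 1 → ∀ x, Commute z x := fun h x =>
    (Subgroup.mem_center_iff.mp (hc h) x).symm
  have hcongr : ∀ {x x' y y' : Γ}, σ x = σ x' → σ y = σ y' → ⁅x, y⁆ = ⁅x', y'⁆ := by
    intro x x' y y' hx hy
    obtain ⟨z, rfl⟩ : ∃ z, x = x' * z := ⟨x'⁻¹ * x, by group⟩
    obtain ⟨w, rfl⟩ : ∃ w, y = y' * w := ⟨y'⁻¹ * y, by group⟩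
    have hz1 : σ z = 1 := by rwa [map_mul, mul_eq_left] at hx
    have hw1 : σ w = 1 := by rwa [map_mul, mul_eq_left] at hy
    rw [bracket_mul_left ((hz (by rw [map_commutatorElement, hz1, commutatorElement_one_left]) x').symm),
      show ⁅z, y' * w⁆ = 1 from commutatorElement_eq_one_iff_commute.mpr (hz hz1 _), one_mul,
      bracket_mul_right ((hz (by rw [map_commutatorElement, hw1, commutatorElement_one_right]) y').symm),
      show ⁅x', w⁆ = 1 from commutatorElement_eq_one_iff_commute.mpr (hz hw1 _).symm, mul_one]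
  -- lifts
  set A : F → Γ := fun a => L (H.us a 0) with hA
  set Z : F → Γ := fun b => L (H.us 0 b) with hZ
  have hdec : ∀ x ∈ H.Q.comap σ, ∃ a b, σ x = σ (A a * Z b) := by
    intro x hx
    obtain ⟨a, b, h⟩ := hx
    refine ⟨a, b, ?_⟩
    rw [h, map_mul, hσL, hσL, H.us_mul]
    simp
  have hA_add : ∀ a a', ∃ w, σ (A a * A a') = σ (A (a + a') * Z w) := fun a a' => ⟨th m a * a', by
    simp only [map_mul, hA, hZ, hσL, H.us_mul]; simp [th]⟩
  have hZ_add : ∀ b b', σ (Z (b + b')) = σ (Z b * Z b') := fun b b' => by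
    simp only [map_mul, hZ, hσL, H.us_mul]; simp [th]
  have hconjA : ∀ (k : Fˣ) (a : F), σ (L (H.ds k) * A a * (L (H.ds k))⁻¹) = σ (A ((k : F) * a)) := fun k a => by
    simp only [map_mul, map_inv, hA, hσL, H.ds_us_conj]; simp
  have hconjZ : ∀ (k : Fˣ) (b : F), σ (L (H.ds k) * Z b * (L (H.ds k))⁻¹) =
      σ (Z ((k : F) * th m (k : F) * b)) := fun k b => by
    simp only [map_mul, map_inv, hZ, hσL, H.ds_us_conj]; simp
  have hconj : ∀ (d x y : Γ), d * ⁅x, y⁆ * d⁻¹ = ⁅d * x * d⁻¹, d * y * d⁻¹⁆ := fun d x y => by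
    simp only [commutatorElement_def]; group
  -- the centre of `Q` is central in the preimage
  have hAZσ : ∀ a b, σ ⁅A a, Z b⁆ = 1 := fun a b => by
    rw [map_commutatorElement, commutatorElement_eq_one_iff_commute]
    simp only [hA, hZ, hσL]
    exact (H.commute_us a 0 0 b).mpr (by simp [th])
  have hZZσ : ∀ b b', σ ⁅Z b, Z b'⁆ = 1 := fun b b' => by
    rw [map_commutatorElement, commutatorElement_eq_one_iff_commute]
    simp only [hZ, hσL]
    exact (H.commute_us 0 b 0 b').mpr (by simp [th])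
  obtain ⟨c, hc0, hc1, hcD⟩ := exists_witness H
  have hN : ∀ k : F, k ≠ 0 → ∃ l : Fˣ, (l : F) * th m (l : F) = k := fun k hk =>
    H.normBij_surjective (Units.mk0 k hk)
  have hZZ : ∀ b b', ⁅Z b, Z b'⁆ = 1 := by
    refine biadd_invariant_eq_one (fun b b' => ⁅Z b, Z b'⁆) id ?_ ?_ ?_ (fun x hx => hx) hc0 hc1 hcD
    · intro b b' e
      show ⁅Z (b + b'), Z e⁆ = _
      rw [hcongr (hZ_add b b') rfl, bracket_mul_left (hz (hZZσ _ _) _).symm]
      exact hz (hZZσ _ _) _
    · intro b e e'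
      show ⁅Z b, Z (e + e')⁆ = _
      rw [hcongr rfl (hZ_add e e'), bracket_mul_right (hz (hZZσ _ _) _).symm]
    · intro k hk b b'
      show ⁅Z (k * b), Z (k * b')⁆ = ⁅Z b, Z b'⁆
      obtain ⟨l, hl⟩ := hN k hk
      rw [← hl, ← hcongr (hconjZ l b) (hconjZ l b'), ← hconj, (hz (hZZσ b b') (L (H.ds l))).symm.eq,
        mul_inv_cancel_right]
  have hAZ : ∀ a b, ⁅A a, Z b⁆ = 1 := fun a b => hAZ0 a b _ _ (hσL _) (hσL _)
  have hZcomm : ∀ b, ∀ y ∈ H.Q.comap σ, Commute (Z b) y := by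
    intro b y hy
    obtain ⟨a, b', h⟩ := hdec y hy
    rw [← commutatorElement_eq_one_iff_commute, hcongr rfl h, bracket_mul_right, hZZ, mul_one,
      ← commutatorElement_inv, hAZ, inv_one]
    rw [hZZ]; exact Commute.one_right _
  -- the abelian group of commutators
  let E : Subgroup Γ := H.Q.comap σ ⊓ Subgroup.centralizer (H.Q.comap σ : Set Γ)
  letI : CommGroup E :=
    { (inferInstance : Group E) with
      mul_comm := fun x y => Subtype.ext ((Subgroup.mem_centralizer_iff.mp y.2.2) x.1 x.2.1) }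
  have hAQ : ∀ a, A a ∈ H.Q.comap σ := fun a => by
    rw [Subgroup.mem_comap, hA, hσL]; exact H.us_mem_Q a 0
  have hC : ∀ a a', ⁅A a, A a'⁆ ∈ E := by
    intro a a'
    have h1 : σ ⁅A a, A a'⁆ = σ (Z (th m a * a' + th m a' * a)) := by
      rw [map_commutatorElement]
      simp only [hA, hZ, hσL, commutatorElement_def]
      rw [H.us_conj, H.us_inv, H.us_mul, H.us_inj]
      exact ⟨H.add_self _, by linear_combination (a' * th m a') * H.two_eq⟩
    obtain ⟨z, hz1, hzeq⟩ : ∃ z, σ z = 1 ∧ ⁅A a, A a'⁆ = Z (th m a * a' + th m a' * a) * z :=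
      ⟨_, by rw [map_mul, map_inv, h1, inv_mul_cancel], (mul_inv_cancel_left _ _).symm⟩
    refine ⟨?_, Subgroup.mem_centralizer_iff.mpr fun y hy => ?_⟩
    · show σ _ ∈ H.Q
      rw [h1, hZ, hσL]; exact H.us_mem_Q _ _
    · rw [hzeq]
      exact ((hZcomm _ y hy).mul_left (hz hz1 y)).symm
  have hCcomm : ∀ a a', ∀ y ∈ H.Q.comap σ, Commute y ⁅A a, A a'⁆ := fun a a' y hy =>
    Subgroup.mem_centralizer_iff.mp (hC a a').2 y hy
  let C : F → F → E := fun a a' => ⟨⁅A a, A a'⁆, hC a a'⟩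
  have hCl : ∀ a a' b, C (a + a') b = C a b * C a' b := by
    intro a a' b
    obtain ⟨v, hv⟩ := hA_add a a'
    have h1 : ⁅A a * A a', A b⁆ = ⁅A (a + a') * Z v, A b⁆ := hcongr hv rfl
    have h2 : ⁅Z v, A b⁆ = 1 := commutatorElement_eq_one_iff_commute.mpr (hZcomm v _ (hAQ b))
    rw [bracket_mul_left (hCcomm _ _ _ (hAQ a)), bracket_mul_left (by rw [h2]; exact Commute.one_right _), h2,
      one_mul] at h1
    apply Subtype.ext
    show ⁅A (a + a'), A b⁆ = ⁅A a, A b⁆ * ⁅A a', A b⁆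
    rw [← h1]
    exact Subgroup.mem_centralizer_iff.mp (hC a b).2 _ (hC a' b).1
  have hCr : ∀ a b b', C a (b + b') = C a b * C a b' := by
    intro a b b'
    obtain ⟨v, hv⟩ := hA_add b b'
    have h1 : ⁅A a, A b * A b'⁆ = ⁅A a, A (b + b') * Z v⁆ := hcongr rfl hv
    have h2 : ⁅A a, Z v⁆ = 1 := hAZ a v
    rw [bracket_mul_right (hCcomm _ _ _ (hAQ b)), bracket_mul_right (by rw [h2]; exact Commute.one_right _), h2,
      mul_one] at h1
    exact Subtype.ext h1.symm
  -- conjugation by the torus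
  have hconjE : ∀ (k : Fˣ), ∀ x ∈ E, L (H.ds k) * x * (L (H.ds k))⁻¹ ∈ E := by
    intro k x hx
    have hnorm : ∀ y, y ∈ H.Q.comap σ → ∀ g : Γ, σ g ∈ H.B → g * y * g⁻¹ ∈ H.Q.comap σ := by
      intro y hy g hg
      rw [Subgroup.mem_comap, map_mul, map_mul, map_inv]
      exact H.Q_conj_mem hg hy
    have hB : σ (L (H.ds k)) ∈ H.B := by rw [hσL]; exact H.ds_mem_B k
    refine ⟨hnorm x hx.1 _ hB, Subgroup.mem_centralizer_iff.mpr fun y hy => ?_⟩
    have h := Subgroup.mem_centralizer_iff.mp hx.2 _ (hnorm y hy (L (H.ds k))⁻¹ (by rw [map_inv]; exact inv_mem hB))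
    have h2 := congrArg (fun t => L (H.ds k) * t * (L (H.ds k))⁻¹) h
    simp only [inv_inv] at h2
    calc y * (L (H.ds k) * x * (L (H.ds k))⁻¹) =
          L (H.ds k) * ((L (H.ds k))⁻¹ * y * L (H.ds k) * x) * (L (H.ds k))⁻¹ := by group
      _ = L (H.ds k) * (x * ((L (H.ds k))⁻¹ * y * L (H.ds k))) * (L (H.ds k))⁻¹ := h2
      _ = _ := by group
  let cj : Fˣ → (E →* E) := fun k =>
    { toFun := fun x => ⟨L (H.ds k) * x.1 * (L (H.ds k))⁻¹, hconjE k x.1 x.2⟩
      map_one' := Subtype.ext (by simp)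
      map_mul' := fun x y => Subtype.ext (by simp [mul_assoc]) }
  let avg : E →* E := ∏ k : Fˣ, cj k
  have hcj : ∀ k a a', cj k (C a a') = C ((k : F) * a) ((k : F) * a') := fun k a a' => Subtype.ext (by
    show L (H.ds k) * ⁅A a, A a'⁆ * (L (H.ds k))⁻¹ = ⁅A _, A _⁆
    rw [hconj, hcongr (hconjA k a) (hconjA k a')])
  have havgC : ∀ a a', avg (C a a') = 1 := by
    refine biadd_invariant_eq_one (fun a a' => avg (C a a')) id ?_ ?_ ?_ (fun x hx => hx) hc0 hc1 hcD
    · intro a a' b; simp only [hCl, map_mul]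
    · intro a b b'; simp only [hCr, map_mul]
    · intro k hk a a'
      show avg (C (k * a) (k * a')) = avg (C a a')
      simp only [avg, MonoidHom.finsetProd_apply, hcj]
      refine Fintype.prod_equiv (Equiv.mulRight (Units.mk0 k hk)) _ _ fun j => ?_
      simp [mul_assoc]
  -- every commutator is among the generators
  let M : Subgroup E := Subgroup.closure {x | ∃ a a', x = C a a'}
  have hM : ∀ x ∈ M, avg x = 1 ∧ x * x = 1 := by
    intro x hx
    refine Subgroup.closure_induction (p := fun x _ => avg x = 1 ∧ x * x = 1) ?_ (by simp) ?_ ?_ hx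
    · rintro _ ⟨a, a', rfl⟩
      refine ⟨havgC a a', ?_⟩
      rw [← hCl, H.add_self]
      exact mul_eq_left.mp (by rw [← hCl, add_zero] : C 0 a' * C 0 a' = C 0 a')
    · intro x y _ _ h1 h2
      exact ⟨by rw [map_mul, h1.1, h2.1, one_mul], by rw [mul_mul_mul_comm, h1.2, h2.2, one_mul]⟩
    · intro x _ h1
      exact ⟨by rw [map_inv, h1.1, inv_one], by rw [← mul_inv, h1.2, inv_one]⟩
  have hle : ⁅H.Q.comap σ, H.Q.comap σ⁆ ≤ M.map E.subtype := by
    rw [Subgroup.commutator_le]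
    intro x hx y hy
    obtain ⟨a, b, h⟩ := hdec x hx
    obtain ⟨a', b', h'⟩ := hdec y hy
    refine ⟨C a a', Subgroup.subset_closure ⟨a, a', rfl⟩, ?_⟩
    have hb : ⁅Z b, A a' * Z b'⁆ = 1 := commutatorElement_eq_one_iff_commute.mpr
      ((hZcomm b _ (hAQ a')).mul_right (hZcomm b _ (by rw [Subgroup.mem_comap, hZ, hσL]; exact H.us_mem_Q _ _)))
    rw [hcongr h h', bracket_mul_left (by rw [hb]; exact Commute.one_right _), hb, one_mul,
      bracket_mul_right (by rw [hAZ]; exact Commute.one_right _), hAZ, mul_one]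
    rfl
  rw [eq_bot_iff]
  rintro z ⟨hz1, hz2⟩
  obtain ⟨x, hx, rfl⟩ := hle hz2
  obtain ⟨h1, h2⟩ := hM x hx
  have hfix : ∀ k, cj k x = x := fun k => Subtype.ext (by
    show L (H.ds k) * x.1 * (L (H.ds k))⁻¹ = x.1
    rw [(hz (z := x.1) hz1 (L (H.ds k))).symm.eq, mul_inv_cancel_right])
  simp only [avg, MonoidHom.finsetProd_apply, hfix, Finset.prod_const, Finset.card_univ] at h1
  rw [← Nat.card_eq_fintype_card, H.card_units] at h1
  obtain ⟨j, hj⟩ : ∃ j, 2 ^ (2 * m + 1) - 1 = 2 * j + 1 := by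
    refine ⟨2 ^ (2 * m) - 1, ?_⟩
    have := Nat.one_le_two_pow (n := 2 * m)
    rw [pow_succ]; omega
  rw [hj, pow_succ, pow_mul, pow_two, h2, one_pow, one_mul] at h1
  rw [Subgroup.mem_bot, Subgroup.coe_subtype, h1, Subgroup.coe_one]


/-- The multiplier of `Sz(8)` has order at most four. -/
theorem card_ker_le_four [Finite Γ] (H : SzHyp F 1) {σ : Γ →* Sz F 1} (hσ : Cfsg.IsStemExtension σ) :
    Nat.card σ.ker ≤ 4 := by
  classical
  haveI := H.fin
  haveI := H.charTwo
  letI := Fintype.ofFinite F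
  set L := Function.surjInv hσ.1 with hL
  have hσL : ∀ g, σ (L g) = g := Function.surjInv_eq hσ.1
  have hz : ∀ {z : Γ}, σ z = 1 → ∀ x, Commute z x := fun h x =>
    (Subgroup.mem_center_iff.mp (hσ.2.1 h) x).symm
  have hcongr : ∀ {x x' y y' : Γ}, σ x = σ x' → σ y = σ y' → ⁅x, y⁆ = ⁅x', y'⁆ := by
    intro x x' y y' hx hy
    obtain ⟨z, rfl⟩ : ∃ z, x = x' * z := ⟨x'⁻¹ * x, by group⟩
    obtain ⟨w, rfl⟩ : ∃ w, y = y' * w := ⟨y'⁻¹ * y, by group⟩
    have hz1 : σ z = 1 := by rwa [map_mul, mul_eq_left] at hx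
    have hw1 : σ w = 1 := by rwa [map_mul, mul_eq_left] at hy
    rw [bracket_mul_left ((hz (by rw [map_commutatorElement, hz1, commutatorElement_one_left]) x').symm),
      show ⁅z, y' * w⁆ = 1 from commutatorElement_eq_one_iff_commute.mpr (hz hz1 _), one_mul,
      bracket_mul_right ((hz (by rw [map_commutatorElement, hw1, commutatorElement_one_right]) y').symm),
      show ⁅x', w⁆ = 1 from commutatorElement_eq_one_iff_commute.mpr (hz hw1 _).symm, mul_one]
  have hcj : ∀ d x y : Γ, d * ⁅x, y⁆ * d⁻¹ = ⁅d * x * d⁻¹, d * y * d⁻¹⁆ := fun d x y => by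
    simp only [commutatorElement_def]; group
  -- the pairing
  let β : F → F → Γ := fun a b => ⁅L (H.us a 0), L (H.us 0 b)⁆
  have hβσ : ∀ a b, σ (β a b) = 1 := fun a b => by
    rw [map_commutatorElement, hσL, hσL, commutatorElement_eq_one_iff_commute]
    exact (H.commute_us a 0 0 b).mpr (by simp [th])
  have hβr : ∀ a b b', β a (b + b') = β a b * β a b' := by
    intro a b b'
    have e : σ (L (H.us 0 (b + b'))) = σ (L (H.us 0 b) * L (H.us 0 b')) := by
      rw [map_mul, hσL, hσL, hσL, H.us_mul, H.us_inj]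
      simp [th]
    show ⁅_, L (H.us 0 (b + b'))⁆ = _
    rw [hcongr rfl e]
    exact bracket_mul_right (hz (hβσ _ _) _).symm
  have hβinv : ∀ (k : Fˣ) a b, β ((k : F) * a) ((k : F) * th 1 (k : F) * b) = β a b := by
    intro k a b
    have e1 : σ (L (H.ds k) * L (H.us a 0) * (L (H.ds k))⁻¹) = σ (L (H.us ((k : F) * a) 0)) := by
      simp only [map_mul, map_inv, hσL, H.ds_us_conj]; simp
    have e2 : σ (L (H.ds k) * L (H.us 0 b) * (L (H.ds k))⁻¹) =
        σ (L (H.us 0 ((k : F) * th 1 (k : F) * b))) := by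
      simp only [map_mul, map_inv, hσL, H.ds_us_conj]; simp
    show ⁅_, _⁆ = β a b
    rw [← hcongr e1 e2, ← hcj, (hz (hβσ a b) (L (H.ds k))).symm.eq, mul_inv_cancel_right]
  -- the pairing factors through `a² b`
  have hβ0 : ∀ b, β 0 b = 1 := fun b => commutatorElement_eq_one_iff_commute.mpr
    (hz (by rw [hσL, H.us_zero]) _)
  let ψ : F → Γ := fun x => β 1 x
  have hψ : ∀ a b, β a b = ψ (a ^ 2 * b) := by
    intro a b
    by_cases ha : a = 0
    · rw [ha, hβ0]
      have h1 : ψ (0 + 0) = ψ 0 * ψ 0 := hβr 1 0 0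
      rw [add_zero] at h1
      rw [show (0 : F) ^ 2 * b = 0 by ring]
      exact (mul_eq_left.mp h1.symm).symm
    · have h7 : a ^ 7 = 1 := by
        have h := FiniteField.pow_card_sub_one_eq_one a ha
        rwa [← Nat.card_eq_fintype_card, H.card] at h
      have h := hβinv (Units.mk0 a ha) 1 (a ^ 2 * b)
      rw [Units.val_mk0, mul_one, show a * th 1 a * (a ^ 2 * b) = b by
        rw [show th 1 a = a ^ 4 from rfl]; linear_combination b * h7] at h
      exact h
  -- a relation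
  have hrel : ψ 1 = 1 := by
    obtain ⟨α, hα⟩ := exists_root8 (F := F) (by rw [H.card]; norm_num)
    have hBZ : ∀ b b', ⁅L (H.us 0 b), L (H.us 0 b')⁆ = 1 := by
      obtain ⟨c, hc0, hc1, hcD⟩ := exists_witness H
      have hs : ∀ b b', σ ⁅L (H.us 0 b), L (H.us 0 b')⁆ = 1 := fun b b' => by
        rw [map_commutatorElement, hσL, hσL, commutatorElement_eq_one_iff_commute]
        exact (H.commute_us _ _ _ _).mpr (by simp [th])
      have ha : ∀ b b', σ (L (H.us 0 (b + b'))) = σ (L (H.us 0 b) * L (H.us 0 b')) := fun b b' => by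
        rw [map_mul, hσL, hσL, hσL, H.us_mul, H.us_inj]
        simp [th]
      refine biadd_invariant_eq_one (fun b b' => ⁅L (H.us 0 b), L (H.us 0 b')⁆) id ?_ ?_ ?_ (fun x hx => hx)
        hc0 hc1 hcD
      · intro b b' e
        show ⁅L (H.us 0 (b + b')), _⁆ = _
        rw [hcongr (ha b b') rfl, bracket_mul_left (hz (hs _ _) _).symm]
        exact hz (hs _ _) _
      · intro b e e'
        show ⁅_, L (H.us 0 (e + e'))⁆ = _
        rw [hcongr rfl (ha e e'), bracket_mul_right (hz (hs _ _) _).symm]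
      · intro k hk b b'
        obtain ⟨l, hl⟩ := H.normBij_surjective (Units.mk0 k hk)
        rw [Units.val_mk0] at hl
        have e : ∀ b, σ (L (H.ds l) * L (H.us 0 b) * (L (H.ds l))⁻¹) = σ (L (H.us 0 (k * b))) := fun b => by
          simp only [map_mul, map_inv, hσL, H.ds_us_conj]; rw [hl, mul_zero]
        show ⁅L (H.us 0 (k * b)), L (H.us 0 (k * b'))⁆ = _
        rw [← hcongr (e b) (e b'), ← hcj, (hz (hs b b') (L (H.ds l))).symm.eq, mul_inv_cancel_right]
    -- conjugate a commutator by `U(e,0)`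
    have key : ∀ a c e : F,
        ψ (e ^ 2 * (th 1 a * c + th 1 c * a)) * (ψ (a ^ 2 * (th 1 e * c + th 1 c * e)) *
          ψ (c ^ 2 * (th 1 e * a + th 1 a * e))) = 1 := by
      intro a c e
      have hsA : ∀ p q : F, σ ⁅L (H.us p 0), L (H.us q 0)⁆ = H.us 0 (th 1 p * q + th 1 q * p) := by
        intro p q
        rw [map_commutatorElement, hσL, hσL, commutatorElement_def, H.us_conj, H.us_inv, H.us_mul, H.us_inj]
        exact ⟨H.add_self _, by linear_combination (q * th 1 q) * H.two_eq⟩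
      have hconjA : ∀ p q : F, σ (L (H.us p 0) * L (H.us q 0) * (L (H.us p 0))⁻¹) =
          σ (L (H.us 0 (th 1 p * q + th 1 q * p)) * L (H.us q 0)) := by
        intro p q
        rw [map_mul, map_mul, map_inv, hσL, hσL, map_mul, hσL, hσL, H.us_conj, H.us_mul, H.us_inj]
        simp [th]
      set s := th 1 a * c + th 1 c * a
      set t := th 1 e * a + th 1 a * e
      set r := th 1 e * c + th 1 c * e
      set C := ⁅L (H.us a 0), L (H.us c 0)⁆
      have hC : ∀ p : F, ⁅L (H.us p 0), C⁆ = β p s := fun p => hcongr rfl (by rw [hsA, hσL])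
      have hZC : ∀ b, ⁅L (H.us 0 b), C⁆ = 1 := fun b => by
        rw [hcongr (rfl : σ (L (H.us 0 b)) = _) (show σ C = σ (L (H.us 0 s)) by rw [hsA, hσL])]
        exact hBZ _ _
      have h1 : L (H.us e 0) * C * (L (H.us e 0))⁻¹ = β e s * C := by
        rw [← hC, commutatorElement_def (L (H.us e 0)) C]; group
      rw [hcj, hcongr (hconjA e a) (hconjA e c)] at h1
      have hT : ⁅L (H.us 0 t) * L (H.us a 0), L (H.us 0 r) * L (H.us c 0)⁆ = β a r * C * (β c t)⁻¹ := by
        have e1 : ⁅L (H.us a 0), L (H.us 0 r) * L (H.us c 0)⁆ = β a r * C := by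
          refine bracket_mul_right ?_
          rw [← commutatorElement_eq_one_iff_commute]
          exact hZC r
        have e2 : ⁅L (H.us 0 t), L (H.us 0 r) * L (H.us c 0)⁆ = (β c t)⁻¹ := by
          rw [bracket_mul_right, hBZ, one_mul, ← commutatorElement_inv]
          exact (hz (by rw [← commutatorElement_inv, map_inv, hβσ, inv_one]) _).symm
        rw [bracket_mul_left, e1, e2]
        rw [e1]
        refine Commute.mul_right (hz (hβσ _ _) _).symm ?_
        rw [← commutatorElement_eq_one_iff_commute]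
        exact hZC t
      rw [hT, hψ, hψ, hψ] at h1
      have hψc : ∀ x y, Commute (ψ x) y := fun x y => hz (hβσ 1 x) y
      have hψsq : ∀ x, ψ x * ψ x = 1 := fun x => by
        have h := hβr 1 x x
        rw [H.add_self] at h
        have h0 : ψ (0 + 0) = ψ 0 * ψ 0 := hβr 1 0 0
        rw [add_zero] at h0
        exact h.symm.trans (mul_eq_left.mp h0.symm)
      rw [mul_assoc, ← ((hψc _ C).inv_left).eq, ← mul_assoc, mul_left_inj,
        inv_eq_of_mul_eq_one_right (hψsq _)] at h1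
      rw [h1]
      exact hψsq _
    have hψadd : ∀ x y, ψ x * ψ y = ψ (x + y) := fun x y => (hβr 1 x y).symm
    have h := key 1 α (α ^ 2)
    rw [hψadd, hψadd] at h
    have hval : (α ^ 2) ^ 2 * (th 1 1 * α + th 1 α * 1) + ((1 : F) ^ 2 * (th 1 (α ^ 2) * α + th 1 α * α ^ 2) +
        α ^ 2 * (th 1 (α ^ 2) * 1 + th 1 1 * α ^ 2)) = 1 := by
      have hth : ∀ x : F, th 1 x = x ^ 4 := fun x => rfl
      simp only [hth]
      linear_combination ((9) * α ^ 0 + (7) * α ^ 1 + (5) * α ^ 2 + (4) * α ^ 3 + (2) * α ^ 4 + (2) * α ^ 5 + (1) * α ^ 6 + (1) * α ^ 7) * hα + ((4) * α ^ 0 + (8) * α ^ 1 + (6) * α ^ 2) * (CharTwo.two_eq_zero : (2 : F) = 0)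
    rw [hval] at h
    exact h
  -- its values
  have hzero : ψ 0 = 1 := by
    have h0 : ψ (0 + 0) = ψ 0 * ψ 0 := hβr 1 0 0
    rw [add_zero] at h0
    exact mul_eq_left.mp h0.symm
  let Ψ : Multiplicative F →* Γ :=
    { toFun := fun x => ψ x.toAdd
      map_one' := hzero
      map_mul' := fun x y => hβr 1 _ _ }
  let K : Subgroup Γ := Ψ.range
  have hKker : K ≤ σ.ker := by
    rintro _ ⟨x, rfl⟩
    exact hβσ 1 _
  have hKcard : Nat.card K ≤ 4 := by
    have h1 := Ψ.ker.card_mul_index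
    rw [Subgroup.index_ker, show Nat.card (Multiplicative F) = 8 by
      rw [Nat.card_congr Multiplicative.toAdd, H.card]; norm_num] at h1
    have h2 : 1 < Nat.card Ψ.ker := by
      rw [Subgroup.one_lt_card_iff_ne_bot]
      intro hb
      have hm : Multiplicative.ofAdd (1 : F) ∈ Ψ.ker := hrel
      rw [hb, Subgroup.mem_bot, ofAdd_eq_one] at hm
      exact one_ne_zero hm
    change Nat.card Ψ.range ≤ 4
    nlinarith
  haveI : K.Normal := ⟨fun x hx g => by
    rw [Subgroup.mem_center_iff.mp (hσ.2.1 (hKker hx)) g, mul_inv_cancel_right]; exact hx⟩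
  let τ : Γ ⧸ K →* Sz F 1 := QuotientGroup.lift K σ hKker
  have hτs : Function.Surjective τ := fun g => ⟨QuotientGroup.mk (L g), hσL g⟩
  have hτc : τ.ker ≤ Subgroup.center (Γ ⧸ K) := by
    intro x hx
    obtain ⟨x, rfl⟩ := QuotientGroup.mk_surjective x
    refine Subgroup.mem_center_iff.mpr fun g => ?_
    obtain ⟨g, rfl⟩ := QuotientGroup.mk_surjective g
    rw [← QuotientGroup.mk_mul, ← QuotientGroup.mk_mul, (hz (z := x) hx g).eq]
  have hτAZ : ∀ a b x y, τ x = H.us a 0 → τ y = H.us 0 b → ⁅x, y⁆ = 1 := by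
    intro a b x y hx hy
    obtain ⟨x, rfl⟩ := QuotientGroup.mk_surjective x
    obtain ⟨y, rfl⟩ := QuotientGroup.mk_surjective y
    show ⁅QuotientGroup.mk' K x, QuotientGroup.mk' K y⁆ = 1
    rw [← map_commutatorElement, QuotientGroup.mk'_apply, QuotientGroup.eq_one_iff]
    have e : ⁅x, y⁆ = β a b := hcongr ((hx : σ x = _).trans (hσL _).symm) ((hy : σ y = _).trans (hσL _).symm)
    rw [e, hψ]
    exact ⟨Multiplicative.ofAdd _, rfl⟩
  -- the kernel is a 2-group inside the commutator of a Sylow subgroup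
  have hbot := inf_commutator_eq_bot_of_commute H hτs hτc hτAZ
  obtain ⟨P, hP⟩ := Sylow.mapSurjective_surjective hσ.1 2 H.sylowQ
  have hmap : (P : Subgroup Γ).map σ = H.Q := by
    rw [← H.coe_sylowQ, ← hP]; rfl
  have hle : (P : Subgroup Γ) ≤ H.Q.comap σ := Subgroup.map_le_iff_le_comap.mp hmap.le
  have h2 : IsPGroup 2 σ.ker := by
    refine IsPGroup.of_card (n := (Nat.card σ.ker).factorization 2) ?_
    refine Nat.eq_pow_of_factorization_eq_single ?_ ?_
    · exact Nat.card_pos.ne'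
    · ext r
      by_cases hr : r = 2
      · subst hr; simp
      · rw [Finsupp.single_eq_of_ne hr]
        by_cases hrp : r.Prime
        · haveI : Fact r.Prime := ⟨hrp⟩
          exact Nat.factorization_eq_zero_of_not_dvd
            (Cfsg.Agent.H64.not_dvd_card_ker_of_isCyclic hσ (H.sylow_odd_isCyclic hr))
        · exact Nat.factorization_eq_zero_of_not_prime _ hrp
  have hkP : σ.ker ≤ P := h2.le_sylow_of_normal P
  have hkK : σ.ker ≤ K := by
    intro z hzk
    have h1 := Cfsg.Agent.H64.mem_commutator_sylow_of_central P (hσ.2.1 hzk) (hσ.2.2 hzk) (hkP hzk)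
    have h3 : (QuotientGroup.mk z : Γ ⧸ K) ∈ τ.ker ⊓ ⁅H.Q.comap τ, H.Q.comap τ⁆ := by
      refine ⟨hzk, ?_⟩
      have h4 : QuotientGroup.mk' K z ∈ (⁅(P : Subgroup Γ), (P : Subgroup Γ)⁆).map (QuotientGroup.mk' K) :=
        Subgroup.mem_map_of_mem _ h1
      rw [Subgroup.map_commutator] at h4
      refine Subgroup.commutator_mono ?_ ?_ h4 <;>
      · rintro _ ⟨y, hy, rfl⟩
        exact hle hy
    rw [hbot, Subgroup.mem_bot, QuotientGroup.eq_one_iff] at h3
    exact h3
  exact (Subgroup.card_le_of_le hkK).trans hKcard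

end Cfsg.Agent.H14.Sz8
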