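import Cfsg.Agent.H14.Sz8.Data
import Cfsg.Agent.H14.Sz8.Field8

/-!
# Checked properties of the certificate tables
-/

set_option autoImplicit false

namespace Cfsg.Agent.H14.Sz8

/-- Entry `i` of a table of `k`-digit binary numbers. -/
def tget (T k i : ℕ) : ℕ := (T >>> (k * i)) % 2 ^ k

/-- Entry as a code of a field element. -/
def dig8 (T i : ℕ) : Fin 8 := ⟨(T >>> (3 * i)) % 8, Nat.mod_lt _ (by norm_num)⟩

/-- Entry as a point. -/
def pnt (T i : ℕ) : Fin 520 := ⟨tget T 10 i % 520, Nat.mod_lt _ (by norm_num)⟩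

/-- A value in the group of order four. -/
def four (n : ℕ) : Fin 4 := ⟨n % 4, Nat.mod_lt _ (by norm_num)⟩

/-- Addition in the group of order four. -/
def fadd (a b : Fin 4) : Fin 4 := ⟨(a.val ^^^ b.val) % 4, Nat.mod_lt _ (by norm_num)⟩

/-- The first spanning vector of a line. -/
def lineV (i : Fin 520) (r : Fin 4) : Fin 8 := dig8 (tget vecs 24 i) r

/-- The second spanning vector of a line. -/
def lineW (i : Fin 520) (r : Fin 4) : Fin 8 := dig8 (tget vecs 24 i) (4 + r)

/-- The pairs of coordinates. -/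
def pairI : Fin 6 → Fin 4 := ![0, 0, 0, 1, 1, 2]

/-- The pairs of coordinates. -/
def pairJ : Fin 6 → Fin 4 := ![1, 2, 3, 2, 3, 3]

/-- Plücker coordinates. -/
def plk (i : Fin 520) (k : Fin 6) : Fin 8 :=
  xadd (fmul (lineV i (pairI k)) (lineW i (pairJ k))) (fmul (lineV i (pairJ k)) (lineW i (pairI k)))

/-- The first nonzero Plücker coordinate. -/
def lead (i : Fin 520) : Fin 6 :=
  if plk i 0 ≠ 0 then 0 else if plk i 1 ≠ 0 then 1 else if plk i 2 ≠ 0 then 2 else
    if plk i 3 ≠ 0 then 3 else if plk i 4 ≠ 0 then 4 else 5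

/-- A code of the Plücker coordinates. -/
def plCode (i : Fin 520) : ℕ :=
  (plk i 0).val + 8 * (plk i 1).val + 64 * (plk i 2).val + 512 * (plk i 3).val + 4096 * (plk i 4).val +
    32768 * (plk i 5).val

/-- Matrix times vector on codes. -/
def cmv (A : Fin 4 → Fin 4 → Fin 8) (v : Fin 4 → Fin 8) (r : Fin 4) : Fin 8 :=
  xadd (xadd (xadd (fmul (A r 0) (v 0)) (fmul (A r 1) (v 1))) (fmul (A r 2) (v 2))) (fmul (A r 3) (v 3))

/-- The data of one generator. -/
structure GenData where
  /-- the permutation of the lines -/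
  perm : ℕ
  /-- its inverse -/
  inv : ℕ
  /-- the translations -/
  shift : ℕ
  /-- coefficients of the images of spanning vectors -/
  coef : ℕ
  /-- the images of the neighbour slots -/
  slot : ℕ
  /-- the matrix -/
  mat : Fin 4 → Fin 4 → Fin 8

/-- The generator `U(1,0)`. -/
def genU : GenData :=
  ⟨permU, invU, shiftU, coefU, slotU, ![![1, 1, 1, 1], ![0, 1, 1, 0], ![0, 0, 1, 1], ![0, 0, 0, 1]]⟩

/-- The generator `h(α)`. -/
def genH : GenData :=
  ⟨permH, invH, shiftH, coefH, slotH, ![![3, 0, 0, 0], ![0, 4, 0, 0], ![0, 0, 7, 0], ![0, 0, 0, 6]]⟩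

/-- The generator `w`. -/
def genW : GenData :=
  ⟨permW, invW, shiftW, coefW, slotW, ![![0, 0, 0, 1], ![0, 0, 1, 0], ![0, 1, 0, 0], ![1, 0, 0, 0]]⟩

/-- The neighbours. -/
def nb (i : Fin 520) (s : Fin 8) : Fin 520 := pnt nbrs (8 * i + s)

/-- The labels of the edges. -/
def lb (i : Fin 520) (s : Fin 8) : Fin 4 := four (tget labs 2 (8 * i + s))

/-- Image of a neighbour slot. -/
def slotImg (d : GenData) (i : Fin 520) (s : Fin 8) : Fin 8 := dig8 d.slot (8 * i + s)

/-- All conditions on a generator at a point. -/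
def genOK (d : GenData) (i : Fin 520) : Prop :=
  pnt d.inv (pnt d.perm i) = i ∧ pnt d.perm (pnt d.inv i) = i ∧
  (∀ r, cmv d.mat (lineV i) r = xadd (fmul (dig8 (tget d.coef 12 i) 0) (lineV (pnt d.perm i) r))
      (fmul (dig8 (tget d.coef 12 i) 1) (lineW (pnt d.perm i) r))) ∧
  (∀ r, cmv d.mat (lineW i) r = xadd (fmul (dig8 (tget d.coef 12 i) 2) (lineV (pnt d.perm i) r))
      (fmul (dig8 (tget d.coef 12 i) 3) (lineW (pnt d.perm i) r))) ∧
  (∀ s, nb (pnt d.perm i) (slotImg d i s) = pnt d.perm (nb i s) ∧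
      lb (pnt d.perm i) (slotImg d i s) =
        fadd (lb i s) (fadd (four (tget d.shift 2 i)) (four (tget d.shift 2 (nb i s)))))

instance instDecidableGenOK (d : GenData) (i : Fin 520) : Decidable (genOK d i) := by
  unfold genOK; infer_instance

/-- The parent of a point in a spanning tree, with the slot leading to the point. -/
def parent (i : Fin 520) : Fin 520 × Fin 8 :=
  (⟨(tget pars 13 i / 8) % 520, Nat.mod_lt _ (by norm_num)⟩,
    ⟨tget pars 13 i % 8, Nat.mod_lt _ (by norm_num)⟩)

/-- The depth in the spanning tree. -/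
def depth (i : Fin 520) : ℕ := tget deps 5 i

theorem genU_ok : ∀ i, genOK genU i := by decide +kernel

theorem genH_ok : ∀ i, genOK genH i := by decide +kernel

theorem genW_ok : ∀ i, genOK genW i := by decide +kernel

theorem plk_ok : ∀ i, plk i (lead i) = 1 ∧ (∀ k, k < lead i → plk i k = 0) ∧
    plCode i = tget codes 18 i ∧ pnt order (pnt rank i) = i ∧
    tget sorted 18 (pnt rank i) = tget codes 18 i := by decide +kernel

theorem tree_ok : ∀ i, (i ≠ 0 → nb (parent i).1 (parent i).2 = i ∧ depth (parent i).1 < depth i) ∧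
    (∀ s t, nb i s = nb i t → s = t) := by decide +kernel

/-- Consecutive sorted codes increase. -/
theorem sorted_ok : ∀ i : Fin 519, tget sorted 18 i.val < tget sorted 18 (i.val + 1) := by decide +kernel

theorem sorted_strictMono {i j : ℕ} (hij : i < j) (hj : j < 520) : tget sorted 18 i < tget sorted 18 j := by
  induction j, hij using Nat.le_induction with
  | base => exact sorted_ok ⟨i, by omega⟩
  | succ j _ ih => exact (ih (by omega)).trans (sorted_ok ⟨j, by omega⟩)

/-- The Plücker codes separate the lines. -/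
theorem plCode_injective : Function.Injective plCode := by
  intro i j h
  obtain ⟨-, -, ci, ri, si⟩ := plk_ok i
  obtain ⟨-, -, cj, rj, sj⟩ := plk_ok j
  have e : pnt rank i = pnt rank j := by
    have h2 : tget sorted 18 (pnt rank i : ℕ) = tget sorted 18 (pnt rank j : ℕ) := by rw [si, sj, ← ci, ← cj, h]
    rcases lt_trichotomy (pnt rank i : ℕ) (pnt rank j : ℕ) with hlt | heq | hgt
    · exact absurd h2 (sorted_strictMono hlt (pnt rank j).isLt).ne
    · exact Fin.ext heq
    · exact absurd h2 (sorted_strictMono hgt (pnt rank i).isLt).ne'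
  rw [← ri, ← rj, e]

end Cfsg.Agent.H14.Sz8
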