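import Cfsg.Agent.H14.Sz8.Checks
import Cfsg.Agent.H7.SzGen
import Cfsg.Prelude.Def_KGroupFacts

/-!
# A stem extension of `Sz(8)` with kernel of order four

The group generated by three monomial permutations of 520 lines, paired with the generators of `Sz(8)`.
An invariant connected labelled graph shows that the kernel consists of translations.
-/

set_option autoImplicit false

namespace Cfsg.Agent.H14.Sz8

open Cfsg.Agent.H7
open Cfsg
open scoped commutatorElement

theorem fadd_self : ∀ a : Fin 4, fadd a a = 0 := by decide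

theorem fadd_zero : ∀ a : Fin 4, fadd a 0 = a := by decide

theorem zero_fadd : ∀ a : Fin 4, fadd 0 a = a := by decide

theorem fadd_comm : ∀ a b : Fin 4, fadd a b = fadd b a := by decide

theorem fadd_assoc : ∀ a b c : Fin 4, fadd (fadd a b) c = fadd a (fadd b c) := by decide

theorem fadd_mid (a b c d : Fin 4) : fadd (fadd a b) (fadd c d) = fadd (fadd a c) (fadd b d) := by
  rw [fadd_assoc, fadd_assoc, ← fadd_assoc b c d, fadd_comm b c, fadd_assoc c b d]

theorem fadd_cancel {a b : Fin 4} (h : fadd a b = 0) : a = b := by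
  rw [← fadd_zero a, ← fadd_self b, ← fadd_assoc, h, zero_fadd]

theorem fadd_eq_self {a b : Fin 4} (h : a = fadd a b) : b = 0 := by
  rw [← zero_fadd b, ← fadd_self a, fadd_assoc, ← h]

/-- The monomial permutation of a generator. -/
def monoPerm (d : GenData) (hd : ∀ i, genOK d i) : Equiv.Perm (Fin 520 × Fin 4) where
  toFun p := (pnt d.perm p.1, fadd (four (tget d.shift 2 p.1)) p.2)
  invFun p := (pnt d.inv p.1, fadd (four (tget d.shift 2 (pnt d.inv p.1))) p.2)
  left_inv p := by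
    dsimp only
    rw [(hd p.1).1, ← fadd_assoc, fadd_self, zero_fadd]
  right_inv p := by
    dsimp only
    rw [(hd p.1).2.1, ← fadd_assoc, fadd_self, zero_fadd]

/-- The translation by an element of the group of order four. -/
def transPerm (c : Fin 4) : Equiv.Perm (Fin 520 × Fin 4) where
  toFun p := (p.1, fadd c p.2)
  invFun p := (p.1, fadd c p.2)
  left_inv p := by dsimp only; rw [← fadd_assoc, fadd_self, zero_fadd]
  right_inv p := by dsimp only; rw [← fadd_assoc, fadd_self, zero_fadd]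

variable {F : Type*} [Field F]

/-- First spanning vector of a line. -/
def vv (α : F) (i : Fin 520) : Fin 4 → F := fun r => ev8 α (lineV i r)

/-- Second spanning vector of a line. -/
def ww (α : F) (i : Fin 520) : Fin 4 → F := fun r => ev8 α (lineW i r)

/-- A monomial permutation lying over an element of the Suzuki group. -/
def Lifts (α : F) (p : Equiv.Perm (Fin 520 × Fin 4) × Sz F 1) : Prop :=
  ∃ π : Fin 520 → Fin 520, ∃ z : Fin 520 → Fin 4,
    (∀ i c, p.1 (i, c) = (π i, fadd (z i) c)) ∧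
    (∀ i, (∃ a b : F, p.2.1.1.mulVec (vv α i) = a • vv α (π i) + b • ww α (π i)) ∧
      ∃ a b : F, p.2.1.1.mulVec (ww α i) = a • vv α (π i) + b • ww α (π i)) ∧
    ∀ i s, ∃ s', nb (π i) s' = π (nb i s) ∧ lb (π i) s' = fadd (lb i s) (fadd (z i) (z (nb i s)))

theorem lifts_one (α : F) : Lifts α 1 := by
  refine ⟨id, fun _ => 0, fun i c => by simp [zero_fadd], fun i => ⟨⟨1, 0, ?_⟩, ⟨0, 1, ?_⟩⟩,
    fun i s => ⟨s, rfl, by simp [fadd_self, fadd_zero]⟩⟩ <;> simp

theorem lifts_mul (α : F) {p q : Equiv.Perm (Fin 520 × Fin 4) × Sz F 1} (hp : Lifts α p) (hq : Lifts α q) :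
    Lifts α (p * q) := by
  obtain ⟨π, z, h1, h2, h3⟩ := hp
  obtain ⟨ρ, y, k1, k2, k3⟩ := hq
  refine ⟨π ∘ ρ, fun i => fadd (z (ρ i)) (y i), fun i c => ?_, fun i => ?_, fun i s => ?_⟩
  · simp only [Prod.fst_mul, Equiv.Perm.mul_apply, k1, h1, Function.comp_apply, fadd_assoc]
  · obtain ⟨⟨a, b, ha⟩, ⟨c, d, hc⟩⟩ := h2 (ρ i)
    obtain ⟨⟨a', b', ha'⟩, ⟨c', d', hc'⟩⟩ := k2 i
    refine ⟨⟨a' * a + b' * c, a' * b + b' * d, ?_⟩, ⟨c' * a + d' * c, c' * b + d' * d, ?_⟩⟩
    · simp only [Prod.snd_mul, Subgroup.coe_mul, Matrix.SpecialLinearGroup.coe_mul, Function.comp_apply]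
      rw [← Matrix.mulVec_mulVec, ha', Matrix.mulVec_add, Matrix.mulVec_smul, Matrix.mulVec_smul, ha, hc]
      module
    · simp only [Prod.snd_mul, Subgroup.coe_mul, Matrix.SpecialLinearGroup.coe_mul, Function.comp_apply]
      rw [← Matrix.mulVec_mulVec, hc', Matrix.mulVec_add, Matrix.mulVec_smul, Matrix.mulVec_smul, ha, hc]
      module
  · obtain ⟨t, ht1, ht2⟩ := k3 i s
    obtain ⟨u, hu1, hu2⟩ := h3 (ρ i) t
    refine ⟨u, by rw [Function.comp_apply, hu1, ht1]; rfl, ?_⟩
    rw [Function.comp_apply, hu2, ht2, ht1, fadd_assoc]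
    congr 1
    dsimp only
    rw [fadd_mid, fadd_comm (y i), fadd_comm (y (nb i s))]

theorem cmv_ev8 [CharP F 2] {α : F} (hα : α ^ 3 = α + 1) (A : Fin 4 → Fin 4 → Fin 8) (v : Fin 4 → Fin 8) :
    (Matrix.of fun r c => ev8 α (A r c)).mulVec (fun r => ev8 α (v r)) = fun r => ev8 α (cmv A v r) := by
  funext r
  simp only [cmv, ev8_xadd, ev8_fmul hα, Matrix.mulVec, dotProduct, Fin.sum_univ_four, Matrix.of_apply]

theorem lifts_monoPerm [CharP F 2] {α : F} (hα : α ^ 3 = α + 1) (d : GenData) (hd : ∀ i, genOK d i)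
    (s : Sz F 1) (hs : s.1.1 = Matrix.of fun r c => ev8 α (d.mat r c)) :
    Lifts α (monoPerm d hd, s) := by
  refine ⟨fun i => pnt d.perm i, fun i => four (tget d.shift 2 i), fun i c => rfl, fun i => ?_, fun i t => ?_⟩
  · refine ⟨⟨ev8 α (dig8 (tget d.coef 12 i) 0), ev8 α (dig8 (tget d.coef 12 i) 1), ?_⟩,
      ⟨ev8 α (dig8 (tget d.coef 12 i) 2), ev8 α (dig8 (tget d.coef 12 i) 3), ?_⟩⟩
    · rw [hs]
      unfold vv ww
      rw [cmv_ev8 hα]
      funext r
      rw [(hd i).2.2.1 r, ev8_xadd, ev8_fmul hα, ev8_fmul hα]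
      rfl
    · rw [hs]
      unfold vv ww
      rw [cmv_ev8 hα]
      funext r
      rw [(hd i).2.2.2.1 r, ev8_xadd, ev8_fmul hα, ev8_fmul hα]
      rfl
  · exact ⟨slotImg d i t, (hd i).2.2.2.2 t⟩

/-- A line in the span of another is that line. -/
theorem eq_of_mem_span [CharP F 2] {α : F} (hα : α ^ 3 = α + 1) {i j : Fin 520} {a b c d : F}
    (h1 : vv α i = a • vv α j + b • ww α j) (h2 : ww α i = c • vv α j + d • ww α j) : i = j := by
  have hP : ∀ k, ev8 α (plk i k) = (a * d + b * c) * ev8 α (plk j k) := by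
    intro k
    have e1 := congrFun h1 (pairI k)
    have e2 := congrFun h1 (pairJ k)
    have e3 := congrFun h2 (pairI k)
    have e4 := congrFun h2 (pairJ k)
    simp only [vv, ww, Pi.add_apply, Pi.smul_apply, smul_eq_mul] at e1 e2 e3 e4
    simp only [plk, ev8_xadd, ev8_fmul hα, e1, e2, e3, e4]
    linear_combination (a * c * ev8 α (lineV j (pairI k)) * ev8 α (lineV j (pairJ k)) +
      b * d * ev8 α (lineW j (pairI k)) * ev8 α (lineW j (pairJ k))) * (CharTwo.two_eq_zero : (2 : F) = 0)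
  obtain ⟨li, zi, -, -, -⟩ := plk_ok i
  obtain ⟨lj, zj, -, -, -⟩ := plk_ok j
  set δ := a * d + b * c
  have hδ : δ ≠ 0 := by
    intro h0
    have := hP (lead i)
    rw [li, ev8_one, h0, zero_mul] at this
    exact one_ne_zero this
  have hk : lead i = lead j := by
    rcases lt_trichotomy (lead i) (lead j) with h | h | h
    · have := hP (lead i)
      rw [li, ev8_one, zj _ h, ev8_zero, mul_zero] at this
      exact absurd this one_ne_zero
    · exact h
    · have := hP (lead j)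
      rw [zi _ h, lj, ev8_zero, ev8_one, mul_one] at this
      exact absurd this.symm hδ
  have hδ1 : δ = 1 := by
    have := hP (lead i)
    rw [li, hk, lj, ev8_one, mul_one] at this
    exact this.symm
  have heq : ∀ k, plk i k = plk j k := fun k => ev8_injective hα (by rw [hP k, hδ1, one_mul])
  exact plCode_injective (by simp only [plCode, heq])

/-- Over the identity there are only translations. -/
theorem lifts_eq_trans [CharP F 2] {α : F} (hα : α ^ 3 = α + 1) {p : Equiv.Perm (Fin 520 × Fin 4) × Sz F 1}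
    (hp : Lifts α p) (h1 : p.2 = 1) : ∃ c, p.1 = transPerm c := by
  obtain ⟨π, z, k1, k2, k3⟩ := hp
  have hπ : ∀ i, π i = i := by
    intro i
    obtain ⟨⟨a, b, ha⟩, ⟨c, d, hc⟩⟩ := k2 i
    rw [h1] at ha hc
    simp only [Subgroup.coe_one, Matrix.SpecialLinearGroup.coe_one, Matrix.one_mulVec] at ha hc
    exact (eq_of_mem_span hα ha hc).symm
  have hstep : ∀ i s, z (nb i s) = z i := by
    intro i s
    obtain ⟨t, t1, t2⟩ := k3 i s
    rw [hπ, hπ] at t1
    rw [hπ, (tree_ok i).2 t s t1] at t2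
    exact (fadd_cancel (fadd_eq_self t2)).symm
  have hconst : ∀ n, ∀ i, depth i = n → z i = z 0 := by
    intro n
    induction n using Nat.strong_induction_on with
    | _ n ih =>
      intro i hi
      by_cases h0 : i = 0
      · rw [h0]
      · obtain ⟨e, hlt⟩ := (tree_ok i).1 h0
        calc z i = z (nb (parent i).1 (parent i).2) := by rw [e]
          _ = z (parent i).1 := hstep _ _
          _ = z 0 := ih _ (hi ▸ hlt) _ rfl
  refine ⟨z 0, Equiv.ext fun q => ?_⟩
  obtain ⟨i, c⟩ := q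
  rw [k1, hπ, hconst _ i rfl]
  rfl

theorem trans_comm (α : F) {p : Equiv.Perm (Fin 520 × Fin 4) × Sz F 1} (hp : Lifts α p) (c : Fin 4) :
    p.1 * transPerm c = transPerm c * p.1 := by
  obtain ⟨π, z, k1, -, -⟩ := hp
  refine Equiv.ext fun q => ?_
  obtain ⟨i, d⟩ := q
  show p.1 (i, fadd c d) = transPerm c (p.1 (i, d))
  rw [k1, k1]
  show _ = (π i, fadd c (fadd (z i) d))
  rw [← fadd_assoc, fadd_comm (z i) c, fadd_assoc]

/-- `U(1,0)` upstairs. -/
def permOfU : Equiv.Perm (Fin 520 × Fin 4) := monoPerm genU genU_ok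

/-- `h(α)` upstairs. -/
def permOfH : Equiv.Perm (Fin 520 × Fin 4) := monoPerm genH genH_ok

/-- `w` upstairs. -/
def permOfW : Equiv.Perm (Fin 520 × Fin 4) := monoPerm genW genW_ok

/-- The first commutator word. -/
def wordOne : Equiv.Perm (Fin 520 × Fin 4) :=
  ⁅permOfU, permOfH * permOfH * (permOfU * permOfU) * (permOfH * permOfH)⁻¹⁆

/-- The second commutator word. -/
def wordTwo : Equiv.Perm (Fin 520 × Fin 4) :=
  ⁅permOfU, permOfH * (permOfU * permOfU) * permOfH⁻¹⁆

theorem wordOne_zero : wordOne (0, 0) = (0, 1) := by decide +kernel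

theorem wordTwo_zero : wordTwo (0, 0) = (0, 3) := by decide +kernel

/-- The translations as a group. -/
def fourGroupEquiv : Fin 4 ≃ Multiplicative (ZMod 2 × ZMod 2) where
  toFun n := Multiplicative.ofAdd (if n.val % 2 = 1 then 1 else 0, if n.val / 2 = 1 then 1 else 0)
  invFun x := four ((Multiplicative.toAdd x).1.val + 2 * (Multiplicative.toAdd x).2.val)
  left_inv := by decide
  right_inv := by decide

theorem fourGroupEquiv_fadd : ∀ a b, fourGroupEquiv (fadd a b) = fourGroupEquiv a * fourGroupEquiv b := by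
  decide

/-- `Sz(8)` has a stem extension with kernel `2²`. -/
theorem exists_stem (H : SzHyp F 1) :
    ∃ (Γ : Subgroup (Equiv.Perm (Fin 520 × Fin 4) × Sz F 1)) (σ : Γ →* Sz F 1),
      IsStemExtension σ ∧ Nonempty (σ.ker ≃* Multiplicative (ZMod 2 × ZMod 2)) := by
  haveI := H.fin
  haveI := H.charTwo
  obtain ⟨α, hα⟩ := exists_root8 (F := F) (by rw [H.card]; norm_num)
  have hα0 : α ≠ 0 := fun h => by rw [h] at hα; simp at hα
  have h2 : (2 : F) = 0 := CharTwo.two_eq_zero
  let k : Fˣ := Units.mk0 α hα0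
  let eU := (permOfU, H.us (1 : F) 0)
  let eH := (permOfH, H.ds k)
  let eW := (permOfW, H.ws)
  let Γ : Subgroup (Equiv.Perm (Fin 520 × Fin 4) × Sz F 1) := Subgroup.closure {eU, eH, eW}
  have e4 : ev8 α 4 = α ^ 2 := by simp [ev8, bit8, dig, Nat.testBit, Nat.shiftRight_eq_div_pow]
  have e3 : ev8 α 3 = α + 1 := by
    simp [ev8, bit8, dig, Nat.testBit, Nat.shiftRight_eq_div_pow]; ring
  have e7 : (α ^ 2)⁻¹ = ev8 α 7 := inv_eq_of_mul_eq_one_right (by
    rw [← e4, ← ev8_fmul hα, ← ev8_one α]; rfl)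
  have e6 : (α ^ 3)⁻¹ = ev8 α 6 := inv_eq_of_mul_eq_one_right (by
    rw [hα, ← e3, ← ev8_fmul hα, ← ev8_one α]; rfl)
  have hU : Lifts α eU := lifts_monoPerm hα genU genU_ok _ (by
    ext r c
    fin_cases r <;> fin_cases c <;>
      simp [SzHyp.us, um, ov, th, genU, ev8_one, ev8_zero])
  have hH : Lifts α eH := lifts_monoPerm hα genH genH_ok _ (by
    ext r c
    fin_cases r <;> fin_cases c <;>
      simp [SzHyp.ds, dm, genH, k, ev8_zero, e4, e3.trans hα.symm, e6, e7])
  have hW : Lifts α eW := lifts_monoPerm hα genW genW_ok _ (by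
    ext r c
    fin_cases r <;> fin_cases c <;>
      simp [SzHyp.ws, wm, genW, ev8_one, ev8_zero])
  haveI : Finite (Matrix.SpecialLinearGroup (Fin 4) F) := inferInstance
  have hLifts : ∀ p ∈ Γ, Lifts α p := by
    intro p hp
    rw [← Subgroup.mem_toSubmonoid, Subgroup.closure_toSubmonoid_of_finite] at hp
    induction hp using Submonoid.closure_induction with
    | mem x hx =>
      rcases hx with rfl | rfl | rfl
      · exact hU
      · exact hH
      · exact hW
    | one => exact lifts_one α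
    | mul x y _ _ hx hy => exact lifts_mul α hx hy
  have mU : eU ∈ Γ := Subgroup.subset_closure (by simp)
  have mH : eH ∈ Γ := Subgroup.subset_closure (by simp)
  have mW : eW ∈ Γ := Subgroup.subset_closure (by simp)
  let σ : Γ →* Sz F 1 := (MonoidHom.snd _ _).comp Γ.subtype
  have rU : H.us (1 : F) 0 ∈ σ.range := ⟨⟨eU, mU⟩, rfl⟩
  have rH : H.ds k ∈ σ.range := ⟨⟨eH, mH⟩, rfl⟩
  have rW : H.ws ∈ σ.range := ⟨⟨eW, mW⟩, rfl⟩
  have hk7 : Subgroup.zpowers k = ⊤ := by
    haveI : Fact (Nat.Prime 7) := ⟨by norm_num⟩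
    refine zpowers_eq_top_of_prime_card (p := 7) (by rw [H.card_units]; norm_num) fun h => ?_
    have h' : α = 1 := congrArg Units.val h
    rw [h'] at hα
    rw [one_pow] at hα
    exact one_ne_zero (left_eq_add.mp hα)
  have rD : ∀ l : Fˣ, H.ds l ∈ σ.range := by
    intro l
    obtain ⟨n, rfl⟩ := Subgroup.mem_zpowers_iff.mp (hk7 ▸ Subgroup.mem_top l)
    show H.dsHom (k ^ n) ∈ σ.range
    rw [map_zpow]
    exact zpow_mem rH n
  have rA : ∀ a : F, H.us a 0 ∈ σ.range := by
    intro a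
    by_cases ha : a = 0
    · rw [ha, H.us_zero]; exact one_mem _
    · have h := mul_mem (mul_mem (rD (Units.mk0 a ha)) rU) (inv_mem (rD (Units.mk0 a ha)))
      rwa [H.ds_us_conj, Units.val_mk0, mul_one, mul_zero] at h
  have rB : ∀ b : F, H.us 0 b ∈ σ.range := by
    intro b
    by_cases hb : b = 0
    · rw [hb, H.us_zero]; exact one_mem _
    · obtain ⟨l, hl⟩ := H.normBij_surjective (Units.mk0 b hb)
      have h := mul_mem (mul_mem (rD l) (mul_mem rU rU)) (inv_mem (rD l))
      rw [H.us_mul, H.ds_us_conj] at h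
      simp only [th_one, mul_one, zero_add, add_zero, H.add_self, mul_zero] at h
      rwa [hl, Units.val_mk0] at h
  have rQ : ∀ a b : F, H.us a b ∈ σ.range := by
    intro a b
    have h := mul_mem (rA a) (rB b)
    rwa [H.us_mul, add_zero, zero_add, mul_zero, add_zero] at h
  have hsurj : Function.Surjective σ := by
    intro g
    rcases H.decomp g with ⟨a, b, l, rfl⟩ | ⟨a, b, l, c, d, rfl⟩
    · exact mul_mem (rQ a b) (rD l)
    · exact mul_mem (mul_mem (rQ a b) rW) (mul_mem (rQ c d) (rD l))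
  have hker : ∀ x : σ.ker, ∃ c, x.1.1.1 = transPerm c := fun x =>
    lifts_eq_trans hα (hLifts _ x.1.2) x.2
  let φ : σ.ker →* Multiplicative (ZMod 2 × ZMod 2) :=
    MonoidHom.mk' (fun x => fourGroupEquiv (x.1.1.1 (0, 0)).2) fun x y => by
      obtain ⟨c, hc⟩ := hker x
      obtain ⟨d, hd⟩ := hker y
      simp only [Subgroup.coe_mul, Prod.fst_mul, Equiv.Perm.mul_apply, hc, hd]
      rw [← fourGroupEquiv_fadd]
      congr 1
      show fadd c (fadd d 0) = fadd (fadd c 0) (fadd d 0)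
      rw [fadd_zero, fadd_zero]
  have hinj : Function.Injective φ := by
    intro x y h
    obtain ⟨c, hc⟩ := hker x
    obtain ⟨d, hd⟩ := hker y
    have h1 : (x.1.1.1 (0, 0)).2 = (y.1.1.1 (0, 0)).2 := fourGroupEquiv.injective h
    rw [hc, hd] at h1
    have hcd : fadd c 0 = fadd d 0 := h1
    rw [fadd_zero, fadd_zero] at hcd
    exact Subtype.ext (Subtype.ext (Prod.ext (by rw [hc, hd, hcd]) (x.2.trans y.2.symm)))
  -- the words
  let gU : Γ := ⟨eU, mU⟩
  let gH : Γ := ⟨eH, mH⟩
  let x1 : Γ := ⁅gU, gH * gH * (gU * gU) * (gH * gH)⁻¹⁆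
  let x2 : Γ := ⁅gU, gH * (gU * gU) * gH⁻¹⁆
  have hσU : σ gU = H.us 1 0 := rfl
  have hσH : σ gH = H.ds k := rfl
  have hsq : H.us (1 : F) 0 * H.us 1 0 = H.us 0 1 := by
    rw [H.us_mul, H.us_inj]
    exact ⟨H.add_self _, by simp⟩
  have hx1 : σ x1 = 1 := by
    simp only [x1, map_commutatorElement, map_mul, map_inv, hσU, hσH, hsq]
    rw [← H.ds_mul, H.ds_us_conj, commutatorElement_eq_one_iff_commute]
    exact (H.commute_us _ _ _ _).mpr (by simp)
  have hx2 : σ x2 = 1 := by
    simp only [x2, map_commutatorElement, map_mul, map_inv, hσU, hσH, hsq]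
    rw [H.ds_us_conj, commutatorElement_eq_one_iff_commute]
    exact (H.commute_us _ _ _ _).mpr (by simp)
  let y1 : σ.ker := ⟨x1, hx1⟩
  let y2 : σ.ker := ⟨x2, hx2⟩
  have hy1 : φ y1 = fourGroupEquiv 1 := by
    show fourGroupEquiv (x1.1.1 (0, 0)).2 = _
    have e : x1.1.1 = wordOne := rfl
    rw [e, wordOne_zero]
  have hy2 : φ y2 = fourGroupEquiv 3 := by
    show fourGroupEquiv (x2.1.1 (0, 0)).2 = _
    have e : x2.1.1 = wordTwo := rfl
    rw [e, wordTwo_zero]
  have hgen : ∀ g : Multiplicative (ZMod 2 × ZMod 2), g = 1 ∨ g = fourGroupEquiv 1 ∨ g = fourGroupEquiv 3 ∨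
      g = fourGroupEquiv 1 * fourGroupEquiv 3 := by decide
  have hφs : Function.Surjective φ := by
    intro g
    rcases hgen g with rfl | rfl | rfl | rfl
    · exact ⟨1, map_one φ⟩
    · exact ⟨y1, hy1⟩
    · exact ⟨y2, hy2⟩
    · exact ⟨y1 * y2, by rw [map_mul, hy1, hy2]⟩
  refine ⟨Γ, σ, ⟨hsurj, ?_, ?_⟩, ⟨MulEquiv.ofBijective φ ⟨hinj, hφs⟩⟩⟩
  · intro x hx
    obtain ⟨c, hc⟩ := hker ⟨x, hx⟩
    refine Subgroup.mem_center_iff.mpr fun g => Subtype.ext (Prod.ext ?_ ?_)
    · show g.1.1 * x.1.1 = x.1.1 * g.1.1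
      rw [show x.1.1 = transPerm c from hc]
      exact trans_comm α (hLifts _ g.2) c
    · show g.1.2 * x.1.2 = x.1.2 * g.1.2
      rw [show x.1.2 = 1 from hx, mul_one, one_mul]
  · intro x hx
    have c1 : x1 ∈ commutator Γ := Subgroup.commutator_mem_commutator (Subgroup.mem_top _) (Subgroup.mem_top _)
    have c2 : x2 ∈ commutator Γ := Subgroup.commutator_mem_commutator (Subgroup.mem_top _) (Subgroup.mem_top _)
    rcases hgen (φ ⟨x, hx⟩) with h | h | h | h
    · have e := hinj (h.trans (map_one φ).symm)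
      rw [show x = 1 from congrArg Subtype.val e]; exact one_mem _
    · have e := hinj (h.trans hy1.symm)
      rw [show x = x1 from congrArg Subtype.val e]; exact c1
    · have e := hinj (h.trans hy2.symm)
      rw [show x = x2 from congrArg Subtype.val e]; exact c2
    · have e := hinj (h.trans (by rw [← hy1, ← hy2, ← map_mul] : fourGroupEquiv 1 * fourGroupEquiv 3 = φ (y1 * y2)))
      rw [show x = x1 * x2 from congrArg Subtype.val e]; exact mul_mem c1 c2

end Cfsg.Agent.H14.Sz8
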